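import Cfsg.Agent.Lib.SchurMult.MathieuCommon
import Cfsg.Agent.Lib.SchurMult.M22.Cert

/-!
The order of the kernel of a stem extension of the Mathieu group of degree 22 divides twelve.
-/

set_option autoImplicit false
set_option maxRecDepth 100000

namespace Cfsg.Agent.Lib.SchurMult.MTwentyTwo

open Cfsg Cfsg.Agent.Lib.Golay

theorem allTwo : dataTwo.allOK = true := by decide +kernel

theorem allThree : dataThree.allOK = true := by decide +kernel

theorem groupTwo : GolayEngine.groupOK dataTwo gensTwo conjTwo sortedTwo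
    (inStab [] (1 <<< 23 ||| 1)) = true := by decide +kernel

theorem groupThree : GolayEngine.groupOK dataThree gensThree conjThree sortedThree
    (inStab [] (1 <<< 23 ||| 1)) = true := by decide +kernel

theorem card_dvd_twelve (Δ : Type) [Group Δ] [Finite Δ] (τ : Δ →* gM22) (hτ : Cfsg.IsStemExtension τ) :
    Nat.card τ.ker ∣ 12 := by
  refine (Nat.dvd_iff_prime_pow_dvd_dvd _ _).2 fun r k hr hk => ?_
  haveI := Fact.mk hr
  have htest : ∀ q, inStab [] (1 <<< 23 ||| 1) q = true → toPerm q ∈ gM22 ∧ valid q = true :=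
    fun q h => inStab_spec h
  by_cases h2 : r = 2
  · subst h2
    exact (GolayEngine.bound (p := 2) htest hτ rfl allTwo groupTwo
      (Mathieu.factorization_of (r := 3465) Nat.prime_two (by rw [gM22_card]; rfl) (by decide)) hk).trans
      ⟨3, rfl⟩
  by_cases h3 : r = 3
  · subst h3
    exact (GolayEngine.bound (p := 3) htest hτ rfl allThree groupThree
      (Mathieu.factorization_of (r := 49280) Nat.prime_three (by rw [gM22_card]; rfl) (by decide)) hk).trans
      ⟨4, rfl⟩
  rcases Nat.eq_zero_or_pos k with rfl | hk0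
  · simp
  exfalso
  refine SchurMult.not_dvd_ker_of_sq hτ ?_ ((dvd_pow_self r hk0.ne').trans hk)
  intro hd
  rw [gM22_card] at hd
  exact Mathieu.sq_not_dvd (a := 7) (b := 2) hr rfl h2 h3 (hd.trans ⟨23, by norm_num⟩)

end Cfsg.Agent.Lib.SchurMult.MTwentyTwo
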