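import Cfsg.Agent.Lib.SchurMult.MathieuCommon
import Cfsg.Agent.Lib.SchurMult.M22.Cert
import Cfsg.Agent.Lib.SchurMult.M22.Data

/-!
A central extension by a cyclic group of order four of a Sylow 2-subgroup of the Mathieu group of degree 22,
inside the product of the symmetric group of degree 64 with that group.
-/

set_option autoImplicit false
set_option maxRecDepth 100000

namespace Cfsg.Agent.Lib.SchurMult.MTwentyTwo

open Cfsg Cfsg.Agent.Lib.Golay
open scoped IsMulCommutative

/-- An image in a listed permutation. -/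
def imgE (ls : List (List ℕ)) (i : ℕ) (a : Fin 64) : Fin 64 :=
  ⟨(ls.getD i []).getD a.1 0 % 64, Nat.mod_lt _ (by norm_num)⟩

/-- A listed permutation, the last being the central one. -/
def permE (i : ℕ) : Equiv.Perm (Fin 64) :=
  if h : (∀ a, imgE extInvs i (imgE extPerms i a) = a) ∧ ∀ a, imgE extPerms i (imgE extInvs i a) = a then
    ⟨imgE extPerms i, imgE extInvs i, h.1, h.2⟩ else 1

/-- An element of the group of degree 22 given by a code. -/
noncomputable def gOf (c : ℕ) : ↥gM22 :=
  if h : inStab [] (1 <<< 23 ||| 1) c = true then ⟨toPerm c, (inStab_spec h).1⟩ else 1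

/-- The lift of a generator. -/
noncomputable def preGen (i : ℕ) : Equiv.Perm (Fin 64) × ↥gM22 := (permE i, gOf (gensTwo.getD i idCode))

/-- The central generator. -/
noncomputable def preZeta : Equiv.Perm (Fin 64) × ↥gM22 := (permE 7, 1)

/-- The extension. -/
noncomputable abbrev ExtGrp : Subgroup (Equiv.Perm (Fin 64) × ↥gM22) :=
  Subgroup.closure (preGen '' {i | i < 7} ∪ {preZeta})

/-- The projection. -/
noncomputable def proj : ↥ExtGrp →* ↥gM22 := (MonoidHom.snd _ _).comp ExtGrp.subtype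

/-- The lifts of the generators in the extension. -/
noncomputable def lifts (i : ℕ) : ↥ExtGrp :=
  if h : i < 7 then ⟨preGen i, Subgroup.subset_closure (Or.inl ⟨i, h, rfl⟩)⟩ else 1

/-- The central element of the extension. -/
noncomputable def zeta : ↥ExtGrp := ⟨preZeta, Subgroup.subset_closure (Or.inr rfl)⟩

theorem gensTwo_ok : gensTwo.all (inStab [] (1 <<< 23 ||| 1)) = true ∧ gensTwo.length = 7 := by
  decide +kernel

theorem gOf_gen {i : ℕ} (hi : i < 7) :
    ((gOf (gensTwo.getD i idCode) : ↥gM22) : Equiv.Perm GolayPt) = toPerm (gensTwo.getD i idCode) ∧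
      valid (gensTwo.getD i idCode) = true := by
  have hm : gensTwo.getD i idCode ∈ gensTwo := by
    rw [List.getD_eq_getElem?_getD, List.getElem?_eq_getElem (gensTwo_ok.2.symm ▸ hi), Option.getD_some]
    exact List.getElem_mem _
  have h := List.all_eq_true.1 gensTwo_ok.1 _ hm
  exact ⟨by simp only [gOf, dif_pos h], (inStab_spec h).2⟩

theorem zeta_commutes : ∀ i : Fin 7, permE 7 * permE i.1 = permE i.1 * permE 7 := by decide +kernel

theorem zeta_order : permE 7 ^ 4 = 1 ∧ permE 7 ^ 2 ≠ 1 := by decide +kernel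

theorem zeta_mem_center : zeta ∈ Subgroup.center ↥ExtGrp := by
  refine Subgroup.mem_center_iff.2 fun y => Subtype.ext ?_
  have hle : ExtGrp ≤ Subgroup.centralizer {preZeta} := by
    refine (Subgroup.closure_le _).2 ?_
    rintro w (⟨i, hi, rfl⟩ | hw) <;> rw [SetLike.mem_coe, Subgroup.mem_centralizer_singleton_iff]
    · exact Prod.ext (zeta_commutes ⟨i, hi⟩).symm ((mul_one _).trans (one_mul _).symm)
    · rw [Set.mem_singleton_iff.1 hw]
  exact Subgroup.mem_centralizer_singleton_iff.1 (hle y.2)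

/-- The tails of the relations. -/
noncomputable def tails (k : ℕ) : ↥ExtGrp := zeta ^ extTails.getD k 0

theorem ev_lifts : ∀ {w : List ℕ}, (∀ i ∈ w, i < 7) →
    (Engine.Data.ev lifts w).1.1 = (w.map permE).prod ∧
      ((Engine.Data.ev lifts w).1.2 : Equiv.Perm GolayPt) = ((GolayEngine.codes gensTwo w).map toPerm).prod ∧
      ∀ q ∈ GolayEngine.codes gensTwo w, valid q = true
  | [], _ => ⟨rfl, rfl, by simp [GolayEngine.codes]⟩
  | i :: w, h => by
    obtain ⟨h1, h2, h3⟩ := ev_lifts fun j hj => h j (List.mem_cons_of_mem _ hj)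
    have hi := h i (List.mem_cons_self ..)
    obtain ⟨g1, g2⟩ := gOf_gen hi
    simp only [Engine.Data.ev, List.map_cons, List.prod_cons, GolayEngine.codes] at h1 h2 h3 ⊢
    refine ⟨?_, ?_, ?_⟩
    · rw [Subgroup.coe_mul, Prod.fst_mul, h1, lifts, dif_pos hi]; rfl
    · rw [Subgroup.coe_mul, Prod.snd_mul, Subgroup.coe_mul, h2, lifts, dif_pos hi]
      exact congrArg (· * _) g1
    · intro q hq
      rcases List.mem_cons.1 hq with rfl | hq
      · exact g2
      · exact h3 q hq

theorem rel_perm : ∀ k : Fin 28, ((dataTwo.lhsAt k.1).map permE).prod =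
    ((dataTwo.rhsAt k.1).map permE).prod * permE 7 ^ extTails.getD k.1 0 := by
  decide +kernel

theorem rel_code : ∀ k : Fin 28,
    (∀ i ∈ dataTwo.lhsAt k.1, i < 7) ∧ (∀ i ∈ dataTwo.rhsAt k.1, i < 7) ∧
    GolayEngine.same (GolayEngine.codes gensTwo (dataTwo.lhsAt k.1))
      (GolayEngine.codes gensTwo (dataTwo.rhsAt k.1)) = true := by
  decide +kernel

theorem zeta_pow (m : ℕ) : (zeta ^ m).1 = (permE 7 ^ m, 1) := by
  rw [SubgroupClass.coe_pow]
  exact Prod.ext rfl (one_pow m)

theorem relations {k : ℕ} (hk : k < dataTwo.nv) :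
    Engine.Data.ev lifts (dataTwo.lhsAt k) = Engine.Data.ev lifts (dataTwo.rhsAt k) * tails k := by
  obtain ⟨hl, hr, hs⟩ := rel_code ⟨k, hk⟩
  obtain ⟨a1, a2, a3⟩ := ev_lifts hl
  obtain ⟨b1, b2, b3⟩ := ev_lifts hr
  refine Subtype.ext (Prod.ext ?_ ?_)
  · rw [Subgroup.coe_mul, Prod.fst_mul, a1, b1, tails, zeta_pow]
    exact rel_perm ⟨k, hk⟩
  · rw [Subgroup.coe_mul, Prod.snd_mul, tails, zeta_pow, mul_one]
    exact Subtype.ext (by rw [a2, b2]; exact GolayEngine.same_spec a3 b3 hs)

/-- The tails as central elements. -/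
noncomputable def centralTails (k : ℕ) : Additive (Subgroup.center ↥ExtGrp) :=
  Additive.ofMul (⟨zeta, zeta_mem_center⟩ ^ extTails.getD k 0)

theorem lifts_rel : dataTwo.Lifts lifts centralTails :=
  ⟨fun k hk => by rw [relations hk, centralTails, toMul_ofMul, SubgroupClass.coe_pow]; rfl⟩

theorem closedTwo : dataTwo.closedOK = true ∧ dataTwo.ordOK = true := by decide +kernel

theorem proj_zeta : proj zeta = 1 := rfl

theorem exists_form (y : ↥ExtGrp) : ∃ k < 128, ∃ z ∈ Subgroup.center ↥ExtGrp,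
    proj z = 1 ∧ y = Engine.Data.ev lifts (dataTwo.word k) * z := by
  obtain ⟨y, hy⟩ := y
  set S : Set ↥ExtGrp := lifts '' {i | i < 7} with hS
  suffices ∃ u ∈ Subgroup.closure S, ∃ m : ℤ, (⟨y, hy⟩ : ↥ExtGrp) = u * zeta ^ m by
    obtain ⟨u, hu, m, e⟩ := this
    obtain ⟨k, hk, d, rfl⟩ := dataTwo.exists_word_of_mem lifts_rel closedTwo.1 closedTwo.2 (by decide) hu
    refine ⟨k, hk, dataTwo.tail centralTails d * zeta ^ m,
      Subgroup.mul_mem _ (SetLike.coe_mem _) (Subgroup.zpow_mem _ zeta_mem_center m), ?_, by rw [e, mul_assoc]⟩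
    rw [map_mul, map_zpow, proj_zeta, one_zpow, mul_one]
    have : dataTwo.val centralTails d ∈ (proj.comp (Subgroup.center ↥ExtGrp).subtype).ker.toAddSubgroup := by
      refine sum_mem fun s _ => zsmul_mem ?_ _
      show proj ((⟨zeta, zeta_mem_center⟩ : Subgroup.center ↥ExtGrp) ^ extTails.getD s 0 : Subgroup.center ↥ExtGrp).1 = 1
      rw [SubgroupClass.coe_pow, map_pow]
      exact one_pow _
    exact this
  induction hy using Subgroup.closure_induction with
  | mem w hw =>
    rcases hw with ⟨i, hi, rfl⟩ | hw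
    · exact ⟨lifts i, Subgroup.subset_closure ⟨i, hi, rfl⟩, 0, Subtype.ext (by simp [lifts, dif_pos (show i < 7 from hi)])⟩
    · refine ⟨1, one_mem _, 1, Subtype.ext ?_⟩
      rw [one_mul, zpow_one]
      exact Set.mem_singleton_iff.1 hw
  | one => exact ⟨1, one_mem _, 0, Subtype.ext (by simp)⟩
  | mul a b ha hb iha ihb =>
    obtain ⟨u, hu, m, e⟩ := iha
    obtain ⟨u', hu', m', e'⟩ := ihb
    refine ⟨u * u', mul_mem hu hu', m + m', ?_⟩
    have hc := Subgroup.mem_center_iff.1 (Subgroup.zpow_mem _ zeta_mem_center m) u'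
    calc (⟨a * b, mul_mem ha hb⟩ : ↥ExtGrp) = ⟨a, ha⟩ * ⟨b, hb⟩ := rfl
      _ = u * zeta ^ m * (u' * zeta ^ m') := by rw [e, e']
      _ = u * u' * zeta ^ (m + m') := by
        rw [zpow_add, mul_assoc u, ← mul_assoc (zeta ^ m), ← hc]; simp only [mul_assoc]
  | inv a ha iha =>
    obtain ⟨u, hu, m, e⟩ := iha
    refine ⟨u⁻¹, inv_mem hu, -m, ?_⟩
    calc (⟨a⁻¹, inv_mem ha⟩ : ↥ExtGrp) = (⟨a, ha⟩ : ↥ExtGrp)⁻¹ := rfl
      _ = (u * zeta ^ m)⁻¹ := by rw [e]
      _ = u⁻¹ * zeta ^ (-m) := by
        rw [mul_inv_rev, ← zpow_neg]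
        exact (Subgroup.mem_center_iff.1 (Subgroup.zpow_mem _ zeta_mem_center (-m)) _).symm

theorem sylow_ok : sylow.length = 128 ∧ sylow.all valid = true ∧
    ((List.range 128).all fun k => GolayEngine.same [sylow.getD k idCode]
      (GolayEngine.codes gensTwo (dataTwo.word k))) = true ∧
    GolayEngine.increasing (sortedTwo.map fun k => sylow.getD k idCode) = true ∧
    ((List.range 128).all fun k => sylow.getD k idCode == GolayEngine.key [sylow.getD k idCode]) = true ∧
    ((List.range 128).all fun k => sortedTwo.contains k) = true := by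
  decide +kernel

theorem word_lt {k i : ℕ} (hi : i ∈ dataTwo.word k) : i < 7 := by
  simp only [Engine.Data.word, List.mem_flatMap, List.mem_range] at hi
  obtain ⟨a, ha, hi⟩ := hi
  rw [List.eq_of_mem_replicate hi]
  exact ha

theorem proj_word {k : ℕ} (hk : k < 128) :
    (proj (Engine.Data.ev lifts (dataTwo.word k)) : Equiv.Perm GolayPt) = toPerm (sylow.getD k idCode) ∧
      valid (sylow.getD k idCode) = true := by
  obtain ⟨hlen, hv, hs, -, -, -⟩ := sylow_ok
  have hm : sylow.getD k idCode ∈ sylow := by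
    rw [List.getD_eq_getElem?_getD, List.getElem?_eq_getElem (hlen.symm ▸ hk), Option.getD_some]
    exact List.getElem_mem _
  have hval := List.all_eq_true.1 hv _ hm
  refine ⟨?_, hval⟩
  obtain ⟨-, b2, b3⟩ := ev_lifts (w := dataTwo.word k) fun i => word_lt
  refine Eq.trans b2 ?_
  rw [GolayEngine.same_spec b3 (v := GolayEngine.codes gensTwo (dataTwo.word k)) (w := [sylow.getD k idCode])
    (by intro p hp; rw [List.mem_singleton.1 hp]; exact hval) ?_]
  · simp
  · have := List.all_eq_true.1 hs k (List.mem_range.2 hk)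
    simp only [GolayEngine.same, List.all_eq_true, beq_iff_eq] at this ⊢
    exact fun i hi => (this i hi).symm

theorem word_injective {j k : ℕ} (hj : j < 128) (hk : k < 128)
    (h : proj (Engine.Data.ev lifts (dataTwo.word j)) = proj (Engine.Data.ev lifts (dataTwo.word k))) : j = k := by
  obtain ⟨-, -, -, hinc, hkey, hcont⟩ := sylow_ok
  obtain ⟨a1, a2⟩ := proj_word hj
  obtain ⟨b1, b2⟩ := proj_word hk
  have e : sylow.getD j idCode = sylow.getD k idCode := by
    rw [beq_iff_eq.1 (List.all_eq_true.1 hkey j (List.mem_range.2 hj)),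
      beq_iff_eq.1 (List.all_eq_true.1 hkey k (List.mem_range.2 hk))]
    refine GolayEngine.key_congr (fun p hp => by rw [List.mem_singleton.1 hp]; exact a2)
      (fun p hp => by rw [List.mem_singleton.1 hp]; exact b2) ?_
    simp only [List.map_cons, List.map_nil, List.prod_cons, List.prod_nil, mul_one]
    exact (a1.symm.trans (congrArg Subtype.val h)).trans b1
  have hmem : ∀ i < 128, i ∈ sortedTwo := fun i hi =>
    List.contains_iff_mem.1 (List.all_eq_true.1 hcont i (List.mem_range.2 hi))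
  exact List.inj_on_of_nodup_map ((GolayEngine.pairwise_of_increasing _ hinc).imp fun h => h.ne)
    (hmem j hj) (hmem k hk) e

theorem ker_le_center : proj.ker ≤ Subgroup.center ↥ExtGrp := by
  intro y hy
  obtain ⟨k, hk, z, hz, hz1, rfl⟩ := exists_form y
  have hw : dataTwo.word 0 = [] := List.flatMap_eq_nil_iff.2 fun i _ => by simp
  have : k = 0 := word_injective hk (by norm_num) (by
    rw [MonoidHom.mem_ker, map_mul, hz1, mul_one] at hy
    rw [hy, hw]
    rfl)
  subst this
  rw [hw]
  simpa [Engine.Data.ev] using hz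

theorem card_range : Nat.card proj.range = 128 := by
  have hb : Function.Bijective (fun k : Fin 128 =>
      (⟨proj (Engine.Data.ev lifts (dataTwo.word k.1)), MonoidHom.mem_range.2 ⟨_, rfl⟩⟩ : proj.range)) := by
    refine ⟨fun a b h => Fin.ext (word_injective a.2 b.2 (congrArg Subtype.val h)), ?_⟩
    rintro ⟨_, y, rfl⟩
    obtain ⟨k, hk, z, hz, hz1, rfl⟩ := exists_form y
    refine ⟨⟨k, hk⟩, Subtype.ext ?_⟩
    show proj (Engine.Data.ev lifts (dataTwo.word k)) = proj (Engine.Data.ev lifts (dataTwo.word k) * z)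
    rw [map_mul, hz1, mul_one]
  rw [← Nat.card_eq_of_bijective _ hb, Nat.card_fin]

end Cfsg.Agent.Lib.SchurMult.MTwentyTwo
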