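import Cfsg.Agent.Lib.SchurMult.TransferExtension
import Cfsg.Agent.Lib.Golay.M21
import Cfsg.Agent.Lib.Golay.Simple

/-!
A stem extension of the Mathieu group of degree 22 with an element of order three in the kernel, from the
special linear group of degree three over four elements covering a point stabiliser.
-/

set_option autoImplicit false
set_option maxRecDepth 100000

namespace Cfsg.Agent.Lib.SchurMult.MTwentyTwo

open Cfsg Cfsg.Agent.Lib Cfsg.Agent.Lib.Golay
open scoped Matrix commutatorElement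

variable {F : Type} [Field F] [Fintype F]

theorem plane_facts (hF : Fintype.card F = 4) (C : Coord F) :
    Function.Surjective (planeHom C) ∧ (planeHom C).ker ≤ Subgroup.center (Matrix.SpecialLinearGroup (Fin 3) F) := by
  have hcen : Subgroup.center (Matrix.SpecialLinearGroup (Fin 3) F) ≤ (planeHom C).ker := by
    intro z hz
    obtain ⟨r, hr, hzr⟩ := Matrix.SpecialLinearGroup.mem_center_iff.1 hz
    refine MonoidHom.mem_ker.2 (Subtype.ext ((plane_exists C z).choose_spec.unique C
      ⟨one_mem _, fun v hv => ?_⟩))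
    have hr0 : r ≠ 0 := by
      rintro rfl
      simp at hr
    show C.point v = C.point _
    rw [← hzr]
    simp only [Matrix.scalar_apply]
    rw [show Matrix.diagonal (fun _ : Fin 3 => r) *ᵥ v = r • v by
      funext i; simp [Matrix.mulVec_diagonal]]
    exact (C.point_smul hr0 hv).symm
  let f : Matrix.ProjectiveSpecialLinearGroup (Fin 3) F →* st3std :=
    QuotientGroup.lift _ (planeHom C) hcen
  haveI := Classical.isSimpleGroup_PSL (F := F) (ι := Fin 3) (by simp)
  have hinj : Function.Injective f := by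
    rcases (IsSimpleGroup.eq_bot_or_eq_top_of_normal f.ker inferInstance) with h | h
    · exact (MonoidHom.ker_eq_bot_iff f).1 h
    · exfalso
      have h01 : (0 : Fin 3) ≠ 1 := by decide
      set t := Matrix.SpecialLinearGroup.transvection h01 (1 : F)
      have hf : planeHom C t = 1 := by
        have : f (QuotientGroup.mk t) = 1 := MonoidHom.mem_ker.1 (h ▸ Subgroup.mem_top _)
        exact this
      have hv : (Pi.single 1 1 : Fin 3 → F) ≠ 0 := by
        intro e
        have := congrFun e 1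
        simp at this
      have := (plane_exists C t).choose_spec.2 _ hv
      rw [show (plane_exists C t).choose = 1 from congrArg Subtype.val hf] at this
      have ht : (t : Matrix (Fin 3) (Fin 3) F) *ᵥ Pi.single 1 1 = ![1, 1, 0] := by
        show Matrix.transvection (0 : Fin 3) 1 (1 : F) *ᵥ Pi.single 1 1 = _
        rw [Matrix.transvection, Matrix.add_mulVec, Matrix.one_mulVec, Matrix.single_mulVec]
        funext i
        fin_cases i <;> simp
      rw [ht] at this
      have hs0 : C.e.symm 0 = 0 := by rw [← C.zero, C.e.symm_apply_apply]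
      have hs1 : C.e.symm 1 = 1 := by rw [← C.one, C.e.symm_apply_apply]
      simp only [Equiv.Perm.one_apply, Coord.point, Coord.code, Pi.single_eq_same,
        Pi.single_eq_of_ne (show (0 : Fin 3) ≠ 1 by decide),
        Pi.single_eq_of_ne (show (2 : Fin 3) ≠ 1 by decide), hs0, hs1, Matrix.cons_val] at this
      have hne : pt (planeTab.getD 4 0) ≠ pt (planeTab.getD 20 0) := by decide +kernel
      exact hne (by simpa using this)
  have hbij : Function.Bijective f := hinj.bijective_of_nat_card_le (by rw [st3std_card, psl34_card hF])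
  refine ⟨fun s => ?_, fun z hz => ?_⟩
  · obtain ⟨q, hq⟩ := hbij.2 s
    obtain ⟨z, rfl⟩ := QuotientGroup.mk_surjective q
    exact ⟨z, hq⟩
  · exact (QuotientGroup.eq_one_iff z).1 (hbij.1 ((show f (QuotientGroup.mk z) = 1 from hz).trans (map_one f).symm))

theorem no_common_point : ∀ a b c : Fin 4, 0 < 16 * a.1 + 4 * b.1 + c.1 →
    pt (planeTab.getD (16 * a.1 + 4 * b.1 + c.1) 0) = pt (planeTab.getD (16 * mul4 2 a.1 + 4 * mul4 3 b.1 + c.1) 0) →
    pt (planeTab.getD (16 * a.1 + 4 * b.1 + c.1) 0) ≠ pt (planeTab.getD (16 * c.1 + 4 * a.1 + b.1) 0) := by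
  decide +kernel

theorem exists_stem_three : ∃ (Δ : Type) (_ : Group Δ) (_ : Finite Δ) (τ : Δ →* ↥gM22),
    Cfsg.IsStemExtension τ ∧ ∃ k ∈ τ.ker, 3 ∣ orderOf k := by
  classical
  let K := GaloisField 2 2
  haveI : Fact (Nat.Prime 2) := ⟨Nat.prime_two⟩
  letI : Fintype K := Fintype.ofFinite K
  have hF : Fintype.card K = 4 := by
    rw [← Nat.card_eq_fintype_card, GaloisField.card 2 2 (by norm_num)]; norm_num
  obtain ⟨e, e0, e1, ea, em⟩ := exists_coord hF
  let C : Coord K := ⟨e, e0, e1, ea, em⟩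
  obtain ⟨hsur, hker⟩ := plane_facts hF C
  set w : K := e 2 with hw
  have h22 : w * w = e 3 := (em 2 2 3 rfl).symm
  have h23 : w * e 3 = 1 := by rw [← e1]; exact (em 2 3 1 rfl).symm
  have hw0 : w ≠ 0 := fun h => zero_ne_one (α := K) (by rw [← h23, h, zero_mul])
  have hw1 : w ≠ 1 := fun h => absurd (e.injective (h.trans e1.symm)) (by decide)
  have hle : st3std ≤ gM22 := by rw [gM22_eq]; exact inf_le_left
  let π : Matrix.SpecialLinearGroup (Fin 3) K →* ↥gM22 := (Subgroup.inclusion hle).comp (planeHom C)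
  let D : Matrix.SpecialLinearGroup (Fin 3) K := ⟨!![w, 0, 0; 0, e 3, 0; 0, 0, 1], by
    rw [Matrix.det_fin_three]; simp [h23]⟩
  let S : Matrix.SpecialLinearGroup (Fin 3) K := ⟨!![0, 0, 1; 1, 0, 0; 0, 1, 0], by
    rw [Matrix.det_fin_three]; simp⟩
  let W : Matrix.SpecialLinearGroup (Fin 3) K := ⟨!![w, 0, 0; 0, w, 0; 0, 0, w], by
    rw [Matrix.det_fin_three]; simp [← h23, ← h22]; ring⟩
  have hWm : (W : Matrix (Fin 3) (Fin 3) K) = w • (1 : Matrix (Fin 3) (Fin 3) K) := by
    show !![w, 0, 0; 0, w, 0; 0, 0, w] = _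
    ext i j
    fin_cases i <;> fin_cases j <;> simp
  have hw3 : w ^ 3 = 1 := by rw [pow_succ, pow_two, mul_assoc, h22, h23]
  have hWc : W ∈ Subgroup.center (Matrix.SpecialLinearGroup (Fin 3) K) := by
    refine Subgroup.mem_center_iff.2 fun g => Subtype.ext ?_
    rw [Matrix.SpecialLinearGroup.coe_mul, Matrix.SpecialLinearGroup.coe_mul, hWm, Matrix.mul_smul, Matrix.smul_mul,
      mul_one, one_mul]
  have hDS : D * S = W * (S * D) := Subtype.ext (by
    show !![w, 0, 0; 0, e 3, 0; 0, 0, 1] * !![0, 0, 1; 1, 0, 0; 0, 1, 0] =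
      !![w, 0, 0; 0, w, 0; 0, 0, w] * (!![0, 0, 1; 1, 0, 0; 0, 1, 0] * !![w, 0, 0; 0, e 3, 0; 0, 0, 1])
    simp [h22, h23])
  have hcomm : ⁅D, S⁆ = W := by
    rw [commutatorElement_def, mul_inv_eq_iff_eq_mul, mul_inv_eq_iff_eq_mul, hDS, mul_assoc]
  have hW3 : W ^ 3 = 1 := Subtype.ext (by
    rw [Matrix.SpecialLinearGroup.coe_pow, hWm, smul_pow, one_pow, hw3, one_smul]
    rfl)
  have hW1 : W ≠ 1 := fun h => hw1 (by
    have := congrFun (congrFun (congrArg Subtype.val h) 0) 0
    simpa [W] using this)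
  have hcen : Subgroup.center (Matrix.SpecialLinearGroup (Fin 3) K) ≤ (planeHom C).ker := by
    intro z hz
    obtain ⟨r, hr, hzr⟩ := Matrix.SpecialLinearGroup.mem_center_iff.1 hz
    refine MonoidHom.mem_ker.2 (Subtype.ext ((plane_exists C z).choose_spec.unique C
      ⟨one_mem _, fun v hv => ?_⟩))
    have hr0 : r ≠ 0 := by rintro rfl; simp at hr
    show C.point v = C.point _
    rw [← hzr]
    simp only [Matrix.scalar_apply]
    rw [show Matrix.diagonal (fun _ : Fin 3 => r) *ᵥ v = r • v by funext i; simp [Matrix.mulVec_diagonal]]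
    exact (C.point_smul hr0 hv).symm
  have hπker : π.ker ≤ Subgroup.center _ := fun z hz => hker (by
    rw [MonoidHom.mem_ker]
    exact Subgroup.inclusion_injective hle (show Subgroup.inclusion hle (planeHom C z) = Subgroup.inclusion hle 1 by
      rw [map_one]; exact hz))
  have hπW : π W = 1 := by
    show Subgroup.inclusion hle (planeHom C W) = 1
    rw [MonoidHom.mem_ker.1 (hcen hWc), map_one]
  have hxy : Commute (π D) (π S) := by
    show π D * π S = π S * π D
    rw [← map_mul, ← map_mul, hDS, map_mul, hπW, one_mul]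
  have hindex : π.range.index = 22 := by
    have hb : π.range = (Subgroup.inclusion hle).range := by
      rw [MonoidHom.range_comp, MonoidHom.range_eq_top.2 hsur, ← MonoidHom.range_eq_map]
    have h := Subgroup.card_mul_index π.range
    rw [hb, Nat.card_congr (MonoidHom.ofInjective (Subgroup.inclusion_injective hle)).toEquiv.symm, st3std_card,
      gM22_card] at h
    rw [hb]
    omega
  have hord : orderOf W = 3 := by
    haveI := Fact.mk Nat.prime_three
    exact orderOf_eq_prime hW3 hW1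
  have hx3 : π D ^ 3 = 1 ∧ π S ^ 3 = 1 := by
    have hD3 : D ^ 3 = 1 := Subtype.ext (by
      have hDm : (D : Matrix (Fin 3) (Fin 3) K) = Matrix.diagonal ![w, e 3, 1] := by
        show !![w, 0, 0; 0, e 3, 0; 0, 0, 1] = _
        ext i j
        fin_cases i <;> fin_cases j <;> simp
      have he3 : e 3 ^ 3 = 1 := by rw [← h22, mul_pow, hw3, one_mul]
      rw [Matrix.SpecialLinearGroup.coe_pow, hDm, Matrix.diagonal_pow, Matrix.SpecialLinearGroup.coe_one, ← Matrix.diagonal_one]
      congr 1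
      funext i
      fin_cases i <;> simp [hw3, he3])
    have hS3 : S ^ 3 = 1 := Subtype.ext (by
      rw [Matrix.SpecialLinearGroup.coe_pow, pow_succ, pow_two, Matrix.SpecialLinearGroup.coe_one]
      show !![0, 0, 1; 1, 0, 0; 0, 1, 0] * !![0, 0, 1; 1, 0, 0; 0, 1, 0] * !![0, 0, 1; 1, 0, 0; 0, 1, 0] = (1 : Matrix (Fin 3) (Fin 3) K)
      simp [Matrix.one_fin_three])
    rw [← map_pow, ← map_pow, hD3, hS3, map_one]
    exact ⟨rfl, rfl⟩
  suffices hst : ∀ (g : ↥gM22) (a b d : ℕ) (u v : Matrix.SpecialLinearGroup (Fin 3) K),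
      a ∣ orderOf (π D) → d ∣ orderOf (π S) → b < d → π u = g⁻¹ * (π D ^ a * π S ^ b) * g →
      π v = g⁻¹ * π S ^ d * g → ⁅u, v⁆ = W ^ (a * d) by
    obtain ⟨Δ, i1, i2, τ, hτ, k, hk, hd⟩ := TransferExt.exists_stem_of_stable (π := π) rfl hπker (π D) (π S) hxy W
      hπW hst (by rw [hord, hindex]; norm_num)
    exact ⟨Δ, i1, i2, τ, hτ, k, hk, hord ▸ hd⟩
  intro g a b d u v ha hd hb hu hv
  have triv : ∀ {u v : Matrix.SpecialLinearGroup (Fin 3) K}, π u = 1 ∨ π v = 1 → ⁅u, v⁆ = 1 := by
    rintro u v (h | h)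
    · exact commutatorElement_eq_one_iff_mul_comm.2 (Subgroup.mem_center_iff.1 (hπker h) v).symm
    · exact commutatorElement_eq_one_iff_mul_comm.2 (Subgroup.mem_center_iff.1 (hπker h) u)
  have ha' : a = 1 ∨ a = 3 := (Nat.dvd_prime Nat.prime_three).1 (ha.trans (orderOf_dvd_of_pow_eq_one hx3.1))
  have hd' : d = 1 ∨ d = 3 := (Nat.dvd_prime Nat.prime_three).1 (hd.trans (orderOf_dvd_of_pow_eq_one hx3.2))
  rcases hd' with rfl | rfl
  swap
  · rw [triv (Or.inr (by rw [hv, hx3.2, mul_one, inv_mul_cancel])), mul_comm, pow_mul, hW3, one_pow]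
  obtain rfl : b = 0 := by omega
  rcases ha' with rfl | rfl
  swap
  · rw [triv (Or.inl (by rw [hu, hx3.1, pow_zero, one_mul, mul_one, inv_mul_cancel])), pow_mul, hW3, one_pow]
  rw [pow_one, pow_zero, mul_one] at hu
  rw [pow_one] at hv
  rw [mul_one, pow_one]
  -- the conjugator fixes the third point
  have hfix : ∀ z : Matrix.SpecialLinearGroup (Fin 3) K, ((π z : ↥gM22) : Equiv.Perm GolayPt) (some 1) = some 1 :=
    fun z => (planeHom C z).2.2
  have hg0 : (g : Equiv.Perm GolayPt) ∈ st2 none (some 0) := gM22_eq.le g.2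
  have hgn : (g : Equiv.Perm GolayPt) none = none := hg0.1.2
  have hgz : (g : Equiv.Perm GolayPt) (some 0) = some 0 := hg0.2
  have hg1 : (g : Equiv.Perm GolayPt) (some 1) = some 1 := by
    by_contra hne
    set p := (g : Equiv.Perm GolayPt) (some 1) with hp
    obtain ⟨t, ht, htp⟩ := C.point_surj p
      (fun h => absurd ((g : Equiv.Perm GolayPt).injective (h.trans hgn.symm)) (by decide))
      (fun h => absurd ((g : Equiv.Perm GolayPt).injective (h.trans hgz.symm)) (by decide)) hne
    have hmove : ∀ (z : Matrix.SpecialLinearGroup (Fin 3) K) (q : Matrix.SpecialLinearGroup (Fin 3) K),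
        π q = g⁻¹ * π z * g → C.point ((z : Matrix (Fin 3) (Fin 3) K) *ᵥ t) = C.point t := by
      intro z q hq
      have h1 : ((π z : ↥gM22) : Equiv.Perm GolayPt) p = p := by
        have h2 := congrArg (fun r : ↥gM22 => (r : Equiv.Perm GolayPt) (some 1)) hq
        simp only [hfix, Subgroup.coe_mul, Subgroup.coe_inv, Equiv.Perm.mul_apply] at h2
        have h3 := congrArg (g : Equiv.Perm GolayPt) h2
        simp only [Equiv.Perm.inv_def, Equiv.apply_symm_apply, ← hp] at h3
        exact h3.symm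
      have h4 : ((π z : ↥gM22) : Equiv.Perm GolayPt) (C.point t) = C.point ((z : Matrix (Fin 3) (Fin 3) K) *ᵥ t) :=
        (plane_exists C z).choose_spec.2 t ht
      rw [← h4, htp, h1]
    have d1 := hmove D u hu
    have d2 := hmove S v hv
    have hcode := C.code_pos ht
    have hz : C.e.symm (0 : K) = 0 := by rw [← C.zero, C.e.symm_apply_apply]
    have s2 : C.e.symm w = 2 := e.symm_apply_apply 2
    have s3 : C.e.symm (e 3) = 3 := e.symm_apply_apply 3
    have c1 : C.code ((D : Matrix (Fin 3) (Fin 3) K) *ᵥ t) =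
        16 * mul4 2 (C.e.symm (t 0)).1 + 4 * mul4 3 (C.e.symm (t 1)).1 + (C.e.symm (t 2)).1 := by
      simp only [Coord.code, D, Matrix.mulVec, dotProduct, Fin.sum_univ_three]
      simp [C.symm_mul, s2, s3]
    have c2 : C.code ((S : Matrix (Fin 3) (Fin 3) K) *ᵥ t) =
        16 * (C.e.symm (t 2)).1 + 4 * (C.e.symm (t 0)).1 + (C.e.symm (t 1)).1 := by
      simp only [Coord.code, S, Matrix.mulVec, dotProduct, Fin.sum_univ_three]
      simp
    simp only [Coord.point, c1, c2] at d1 d2
    exact no_common_point _ _ _ hcode d1.symm d2.symm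
  obtain ⟨q, hq⟩ := hsur ⟨g.1, ⟨⟨hg0.1, hg0.2⟩, hg1⟩⟩
  have hπq : π q = g := Subtype.ext (congrArg (fun s : ↥st3std => (s : Equiv.Perm GolayPt)) hq)
  have hz : ∀ {z r : Matrix.SpecialLinearGroup (Fin 3) K}, π r = g⁻¹ * π z * g →
      (q⁻¹ * z * q)⁻¹ * r ∈ Subgroup.center _ := fun {z r} h => hπker (by
    rw [MonoidHom.mem_ker, map_mul, map_inv, map_mul, map_mul, map_inv, hπq, h, inv_mul_cancel])
  calc ⁅u, v⁆ = ⁅q⁻¹ * D * q * ((q⁻¹ * D * q)⁻¹ * u), q⁻¹ * S * q * ((q⁻¹ * S * q)⁻¹ * v)⁆ := by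
        rw [mul_inv_cancel_left, mul_inv_cancel_left]
    _ = ⁅q⁻¹ * D * q, q⁻¹ * S * q⁆ := commutatorElement_central_mul _ _ (hz hu) (hz hv)
    _ = q⁻¹ * ⁅D, S⁆ * q := by simp only [commutatorElement_def]; group
    _ = W := by rw [hcomm, mul_assoc, ← Subgroup.mem_center_iff.1 hWc q, inv_mul_cancel_left]

end Cfsg.Agent.Lib.SchurMult.MTwentyTwo
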