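import Cfsg.Agent.Lib.SchurMult.M22.Ext

/-!
Checks of the coset tables of a Sylow subgroup in the Mathieu group of degree 22.
-/

set_option autoImplicit false
set_option maxRecDepth 100000
set_option Elab.async false

namespace Cfsg.Agent.Lib.SchurMult.MTwentyTwo

open Cfsg Cfsg.Agent.Lib.Golay

/-- An entry of a table stored in parts. -/
def entry {α : Type} (T : List (List (List α))) (d : α) (i : ℕ) : α :=
  ((T.getD (i / 256) []).getD (i % 256 / 16) []).getD (i % 16) d

/-- A representative. -/
def repAt (i : ℕ) : ℕ := entry reps idCode i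

/-- An element of the Sylow subgroup. -/
def sylAt (k : ℕ) : ℕ := sylow.getD k idCode

/-- The check of a row of an action table. -/
def rowOK (a : ℕ) (T : List (List (List (ℕ × ℕ)))) (lo len : ℕ) : Bool :=
  (List.range len).all fun i =>
    let e := entry T (0, 0) (lo + i)
    Nat.blt e.1 3465 && Nat.blt e.2 128 &&
      GolayEngine.same [a, repAt (lo + i)] [repAt e.1, sylAt e.2]

/-- The check of the search tree. -/
def treeOK (lo len : ℕ) : Bool :=
  (List.range len).all fun i =>
    let e := entry parents (0, 0) (lo + i)
    Nat.blt e.2 (lo + i) && Nat.blt e.1 2 && isComp (gens.getD e.1 idCode) (repAt e.2) (repAt (lo + i))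

theorem reps_ok : repAt 0 = idCode ∧
    ((List.range 3465).all fun i => valid (repAt i)) = true ∧
    gens.length = 2 ∧ (gens.all (inStab [] (1 <<< 23 ||| 1))) = true ∧
    gens = m22Conj.map (fun e => e.2.1) := by
  refine ⟨?_, ?_, ?_, ?_, ?_⟩ <;> decide +kernel

theorem tree_ok : treeOK 1 3464 = true := by decide +kernel

theorem rows_fst : rowOK (sylAt pairFst) actFst 0 3465 = true := by decide +kernel

theorem rows_snd : rowOK (sylAt pairSnd) actSnd 0 3465 = true := by decide +kernel

theorem rows_gen0 : rowOK (gens.getD 0 idCode) actGen0 0 3465 = true := by decide +kernel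

theorem rows_gen1 : rowOK (gens.getD 1 idCode) actGen1 0 3465 = true := by decide +kernel

end Cfsg.Agent.Lib.SchurMult.MTwentyTwo
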