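import Cfsg.Agent.Lib.SchurMult.TransferSum
import Cfsg.Agent.Lib.SchurMult.M22.Rows

/-!
A stem extension of the Mathieu group of degree 22 with an element of order four in the kernel.
-/

set_option autoImplicit false
set_option maxRecDepth 100000

namespace Cfsg.Agent.Lib.SchurMult.MTwentyTwo

open Cfsg Cfsg.Agent.Lib.Golay

theorem rows_spec {a : ℕ} {T : List (List (List (ℕ × ℕ)))} (h : rowOK a T 0 3465 = true) (i : Fin 3465) :
    (entry T (0, 0) i.1).1 < 3465 ∧ (entry T (0, 0) i.1).2 < 128 ∧
      GolayEngine.same [a, repAt i.1] [repAt (entry T (0, 0) i.1).1, sylAt (entry T (0, 0) i.1).2] = true := by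
  simp only [rowOK, List.all_eq_true, List.mem_range, Bool.and_eq_true, Nat.blt_eq, Nat.zero_add] at h
  obtain ⟨⟨h1, h2⟩, h3⟩ := h i.1 i.2
  exact ⟨h1, h2, h3⟩

theorem repAt_valid (i : Fin 3465) : valid (repAt i.1) = true :=
  List.all_eq_true.1 reps_ok.2.1 i.1 (List.mem_range.2 i.2)

theorem gens_mem (t : ℕ) (ht : t < 2) :
    toPerm (gens.getD t idCode) ∈ gM22 ∧ valid (gens.getD t idCode) = true := by
  refine inStab_spec (List.all_eq_true.1 reps_ok.2.2.2.1 _ ?_)
  rw [List.getD_eq_getElem?_getD, List.getElem?_eq_getElem (reps_ok.2.2.1.symm ▸ ht), Option.getD_some]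
  exact List.getElem_mem _

theorem repAt_mem : ∀ i : ℕ, i < 3465 → toPerm (repAt i) ∈ gM22 := by
  intro i
  induction i using Nat.strong_induction_on with
  | _ i ih =>
    intro hi
    rcases Nat.eq_zero_or_pos i with rfl | h0
    · rw [reps_ok.1, toPerm_idCode]; exact one_mem _
    have h := tree_ok
    simp only [treeOK, List.all_eq_true, List.mem_range, Bool.and_eq_true, Nat.blt_eq] at h
    obtain ⟨⟨h1, h2⟩, h3⟩ := h (i - 1) (by omega)
    rw [show 1 + (i - 1) = i by omega] at h1 h2 h3
    rw [toPerm_isComp h3]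
    exact mul_mem (gens_mem _ h2).1 (ih _ h1 (by omega))

/-- A representative as an element of the group. -/
noncomputable def rep (i : Fin 3465) : ↥gM22 := ⟨toPerm (repAt i.1), repAt_mem i.1 i.2⟩

/-- The lift of an element of the Sylow subgroup. -/
noncomputable def liftW (k : ℕ) : ↥ExtGrp := Engine.Data.ev lifts (dataTwo.word k)

/-- The point of a row. -/
def rowPt {a : ℕ} (T : List (List (List (ℕ × ℕ)))) (h : rowOK a T 0 3465 = true) (i : Fin 3465) : Fin 3465 :=
  ⟨(entry T (0, 0) i.1).1, (rows_spec h i).1⟩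

theorem row_eq {a : ℕ} {T : List (List (List (ℕ × ℕ)))} (h : rowOK a T 0 3465 = true) (ha : valid a = true)
    (g : ↥gM22) (hg : (g : Equiv.Perm GolayPt) = toPerm a) (i : Fin 3465) :
    g * rep i = rep (rowPt T h i) * proj (liftW (entry T (0, 0) i.1).2) := by
  obtain ⟨h1, h2, h3⟩ := rows_spec h i
  obtain ⟨w1, w2⟩ := proj_word h2
  refine Subtype.ext ?_
  rw [Subgroup.coe_mul, Subgroup.coe_mul, hg, liftW, w1]
  have := GolayEngine.same_spec (v := [a, repAt i.1]) (w := [repAt (entry T (0, 0) i.1).1, sylAt (entry T (0, 0) i.1).2])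
    (by
      intro p hp
      simp only [List.mem_cons, List.not_mem_nil, or_false] at hp
      rcases hp with rfl | rfl
      exacts [ha, repAt_valid i])
    (by
      intro p hp
      simp only [List.mem_cons, List.not_mem_nil, or_false] at hp
      rcases hp with rfl | rfl
      exacts [repAt_valid ⟨_, h1⟩, w2]) h3
  simpa [rep, rowPt, sylAt] using this

/-- Right multiplication of an element given by code and exponent. -/
def mulStep (e : ℕ × ℕ) (i : ℕ) : ℕ × ℕ :=
  let r := (extMul.getD e.1 []).getD i (0, 0)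
  (r.1, e.2 + r.2)

/-- The product of two codes. -/
def mulW (j k : ℕ) : ℕ × ℕ := (dataTwo.word k).foldl mulStep (j, 0)

theorem extMul_ok : ((List.range 128).all fun j => (List.range 7).all fun i =>
    let r := (extMul.getD j []).getD i (0, 0)
    let o := dataTwo.norm (dataTwo.word j ++ [i])
    Nat.blt r.1 128 && o.1 == dataTwo.word r.1 &&
      Nat.beq ((o.2.map fun t => extTails.getD t 0).sum % 4) (r.2 % 4)) = true := by
  decide +kernel

theorem zeta_four : zeta ^ 4 = 1 := Subtype.ext (by
  rw [zeta_pow, zeta_order.1]; rfl)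

theorem zeta_mod {m n : ℕ} (h : m % 4 = n % 4) : zeta ^ m = zeta ^ n := by
  rw [pow_eq_pow_mod m zeta_four, h, ← pow_eq_pow_mod n zeta_four]

theorem ev_tails (l : List ℕ) : Engine.Data.ev tails l = zeta ^ (l.map fun t => extTails.getD t 0).sum := by
  induction l with
  | nil => simp [Engine.Data.ev]
  | cons t l ih =>
    simp only [Engine.Data.ev, List.map_cons, List.prod_cons, List.sum_cons] at ih ⊢
    rw [ih, tails, pow_add]

theorem mulStep_spec {e : ℕ × ℕ} (he : e.1 < 128) {i : ℕ} (hi : i < 7) :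
    (mulStep e i).1 < 128 ∧ liftW e.1 * zeta ^ e.2 * lifts i = liftW (mulStep e i).1 * zeta ^ (mulStep e i).2 := by
  have h := List.all_eq_true.1 (List.all_eq_true.1 extMul_ok e.1 (List.mem_range.2 he)) i (List.mem_range.2 hi)
  simp only [Bool.and_eq_true, Nat.blt_eq, beq_iff_eq, Nat.beq_eq] at h
  obtain ⟨⟨h1, h2⟩, h3⟩ := h
  refine ⟨h1, ?_⟩
  have hT : ∀ k g, Commute (tails k) g := fun k g =>
    (Subgroup.mem_center_iff.1 (Subgroup.pow_mem _ zeta_mem_center _) g).symm
  have hs := dataTwo.collect_sound lifts tails hT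
    (fun k hk => relations (by rwa [dataTwo.length_lhs] at hk)) Engine.Data.fuel (dataTwo.word e.1 ++ [i])
  rw [← Engine.Data.norm, Engine.Data.ev_append, ev_tails, h2, zeta_mod h3] at hs
  rw [mul_assoc, ← Subgroup.mem_center_iff.1 (Subgroup.pow_mem _ zeta_mem_center e.2) (lifts i), ← mul_assoc]
  show liftW e.1 * lifts i * _ = _
  rw [show liftW e.1 * lifts i = liftW (mulStep e i).1 * zeta ^ ((extMul.getD e.1 []).getD i (0, 0)).2 from by
    simpa [liftW, mulStep, Engine.Data.ev] using hs, mul_assoc, ← pow_add]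
  simp only [mulStep, add_comm]

theorem mulW_spec {j : ℕ} (hj : j < 128) (k : ℕ) :
    liftW j * liftW k = liftW (mulW j k).1 * zeta ^ (mulW j k).2 := by
  have gen : ∀ (w : List ℕ) (e : ℕ × ℕ), (∀ i ∈ w, i < 7) → e.1 < 128 →
      liftW e.1 * zeta ^ e.2 * Engine.Data.ev lifts w =
        liftW (w.foldl mulStep e).1 * zeta ^ (w.foldl mulStep e).2 := by
    intro w
    induction w with
    | nil => intro e _ _; simp [Engine.Data.ev]
    | cons i w ih =>
      intro e hw he
      obtain ⟨a, b⟩ := mulStep_spec he (hw i (List.mem_cons_self ..))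
      rw [List.foldl_cons, ← ih _ (fun t ht => hw t (List.mem_cons_of_mem _ ht)) a, ← b]
      simp [Engine.Data.ev, mul_assoc]
  have := gen (dataTwo.word k) (j, 0) (fun i => word_lt) hj
  simpa [liftW, mulW] using this

/-- The first entry of the commutator at a point. -/
def left (i : ℕ) : ℕ × ℕ :=
  let e := entry actSnd (0, 0) i
  mulW (entry actFst (0, 0) e.1).2 e.2

/-- The second entry of the commutator at a point. -/
def right (i : ℕ) : ℕ × ℕ :=
  let e := entry actFst (0, 0) i
  mulW (entry actSnd (0, 0) e.1).2 e.2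

/-- The exponent at a point. -/
def expo (i : ℕ) : ℕ := (left i).2 + 3 * (right i).2

theorem left_right : ((List.range 3465).all fun i => Nat.beq (left i).1 (right i).1) = true := by
  decide +kernel

theorem expo_total : ((List.finRange 3465).map fun i => expo i.1).sum % 4 = 3 := by decide +kernel

theorem pair_ok : pairFst < 128 ∧ pairSnd < 128 ∧
    GolayEngine.same [sylAt pairFst, sylAt pairSnd] [sylAt pairSnd, sylAt pairFst] = true := by
  decide +kernel

theorem generated : Subgroup.closure {g : ↥gM22 | ∃ t < 2, (g : Equiv.Perm GolayPt) = toPerm (gens.getD t idCode)} = ⊤ := by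
  set K := Subgroup.closure {g : ↥gM22 | ∃ t < 2, (g : Equiv.Perm GolayPt) = toPerm (gens.getD t idCode)} with hK
  have hprog : progOK ((m22Conj.map fun e => e.2.1) ++ [idCode] ++ m22Steps.map fun e => e.2.2)
      (m22Conj.length + 1) m22Steps = true ∧
      (m22Levels.all fun e => e.2.all fun t =>
        ((m22Conj.map fun e => e.2.1) ++ [idCode] ++ m22Steps.map fun e => e.2.2).elem t) = true := by
    refine ⟨?_, ?_⟩ <;> decide +kernel
  have hcard : Nat.card gM22 = chainSize m22Levels := by rw [gM22_card]; decide +kernel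
  have hle : K.map gM22.subtype ≤ gM22 := Subgroup.map_subtype_le _
  have := eq_of_chain hle (chainOK_of_gen m22_gen) (fun e he t ht => ?_) hcard
  · refine eq_top_iff.2 fun g _ => ?_
    obtain ⟨g', hg', e⟩ := this.ge g.2
    rwa [← Subtype.ext (a1 := g') (a2 := g) e]
  · refine prog_mem _ _ m22Steps (by simpa using hprog.1) ?_ (List.elem_iff.1 (List.all_eq_true.1 (List.all_eq_true.1 hprog.2 e he) t ht))
    intro p hp
    rcases List.mem_append.1 hp with hp | hp
    · rw [← reps_ok.2.2.2.2] at hp
      obtain ⟨t, ht, rfl⟩ := List.mem_iff_getElem.1 hp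
      have ht2 : t < 2 := reps_ok.2.2.1 ▸ ht
      obtain ⟨h1, -⟩ := gens_mem t ht2
      refine ⟨⟨_, h1⟩, Subgroup.subset_closure ⟨t, ht2, rfl⟩, ?_⟩
      show toPerm (gens.getD t idCode) = _
      rw [List.getD_eq_getElem?_getD, List.getElem?_eq_getElem ht, Option.getD_some]
    · rw [List.mem_singleton.1 hp, toPerm_idCode]; exact one_mem _

theorem rep_bijective :
    Function.Bijective fun i => (QuotientGroup.mk (rep i) : ↥gM22 ⧸ proj.range) := by
  have hsurj : ∀ g : ↥gM22, ∃ i, (QuotientGroup.mk (rep i) : ↥gM22 ⧸ proj.range) = QuotientGroup.mk g := by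
    intro g
    have hg : g ∈ Subgroup.closure {g : ↥gM22 | ∃ t < 2, (g : Equiv.Perm GolayPt) = toPerm (gens.getD t idCode)} :=
      generated ▸ Subgroup.mem_top g
    rw [← Subgroup.mem_toSubmonoid, Subgroup.closure_toSubmonoid_of_finite] at hg
    suffices ∀ i, ∃ j, (QuotientGroup.mk (rep j) : ↥gM22 ⧸ proj.range) = g • (QuotientGroup.mk (rep i) : ↥gM22 ⧸ proj.range) by
      obtain ⟨j, hj⟩ := this 0
      refine ⟨j, hj.trans ?_⟩
      rw [show rep 0 = 1 from Subtype.ext (by show toPerm (repAt 0) = 1; rw [reps_ok.1, toPerm_idCode])]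
      exact congrArg QuotientGroup.mk (mul_one g)
    induction hg using Submonoid.closure_induction with
    | mem g hg =>
      obtain ⟨t, ht, hgt⟩ := hg
      intro i
      have key : ∀ (T : List (List (List (ℕ × ℕ)))) (h : rowOK (gens.getD t idCode) T 0 3465 = true),
          (QuotientGroup.mk (rep (rowPt T h i)) : ↥gM22 ⧸ proj.range) = g • (QuotientGroup.mk (rep i) : ↥gM22 ⧸ proj.range) := by
        intro T h
        show _ = (QuotientGroup.mk (g * rep i) : ↥gM22 ⧸ proj.range)
        rw [row_eq h (gens_mem t ht).2 g hgt i]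
        exact (QuotientGroup.mk_mul_of_mem _ (MonoidHom.mem_range.2 ⟨_, rfl⟩)).symm
      interval_cases t
      · exact ⟨_, key _ rows_gen0⟩
      · exact ⟨_, key _ rows_gen1⟩
    | one => intro i; exact ⟨i, (one_smul _ _).symm⟩
    | mul a b _ _ ha hb =>
      intro i
      obtain ⟨j, hj⟩ := hb i
      obtain ⟨l, hl⟩ := ha j
      exact ⟨l, by rw [hl, hj, mul_smul]⟩
  have hs : Function.Surjective fun i => (QuotientGroup.mk (rep i) : ↥gM22 ⧸ proj.range) := fun q => by
    obtain ⟨g, rfl⟩ := QuotientGroup.mk_surjective q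
    exact hsurj g
  refine (Nat.bijective_iff_surjective_and_card _).2 ⟨hs, ?_⟩
  have := Subgroup.card_eq_card_quotient_mul_card_subgroup proj.range
  rw [card_range, gM22_card] at this
  rw [Nat.card_fin]
  omega

theorem exists_stem_four : ∃ (Δ : Type) (_ : Group Δ) (_ : Finite Δ) (τ : Δ →* ↥gM22),
    Cfsg.IsStemExtension τ ∧ ∃ k ∈ τ.ker, 4 ∣ orderOf k := by
  obtain ⟨hp, hq, hpq⟩ := pair_ok
  obtain ⟨x1, x2⟩ := proj_word hp
  obtain ⟨y1, y2⟩ := proj_word hq
  have hxy : Commute (proj (liftW pairFst)) (proj (liftW pairSnd)) := by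
    refine Subtype.ext ?_
    rw [Subgroup.coe_mul, Subgroup.coe_mul, liftW, liftW, x1, y1]
    have := GolayEngine.same_spec (v := [sylAt pairFst, sylAt pairSnd]) (w := [sylAt pairSnd, sylAt pairFst])
      (by intro p hp; simp only [List.mem_cons, List.not_mem_nil, or_false] at hp; rcases hp with rfl | rfl; exacts [x2, y2])
      (by intro p hp; simp only [List.mem_cons, List.not_mem_nil, or_false] at hp; rcases hp with rfl | rfl; exacts [y2, x2]) hpq
    simpa [sylAt] using this
  have hc3 : orderOf (zeta ^ 3) = 4 := by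
    have hne : zeta ^ 2 ≠ 1 := fun e => zeta_order.2 (by
      have := congrArg (fun w : ↥ExtGrp => w.1.1) e
      simp only [zeta_pow] at this
      exact this)
    haveI := Fact.mk Nat.prime_two
    refine orderOf_eq_prime_pow (p := 2) (n := 1) ?_ ?_
    · rw [← pow_mul, zeta_mod (show (3 * 2 ^ 1) % 4 = 2 % 4 from rfl)]
      exact hne
    · rw [← pow_mul, zeta_mod (show (3 * 2 ^ (1 + 1)) % 4 = 0 % 4 from rfl), pow_zero]
  have he : ∀ i : Fin 3465,
      liftW (entry actFst (0, 0) (rowPt actSnd rows_snd i).1).2 * liftW (entry actSnd (0, 0) i.1).2 =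
        zeta ^ expo i.1 * (liftW (entry actSnd (0, 0) (rowPt actFst rows_fst i).1).2 *
          liftW (entry actFst (0, 0) i.1).2) := by
    intro i
    have h := Nat.eq_of_beq_eq_true (List.all_eq_true.1 left_right i.1 (List.mem_range.2 i.2))
    have hl := (rows_spec rows_fst (rowPt actSnd rows_snd i)).2.1
    have hr := (rows_spec rows_snd (rowPt actFst rows_fst i)).2.1
    rw [mulW_spec hl, mulW_spec hr]
    show liftW (left i.1).1 * zeta ^ (left i.1).2 =
      zeta ^ expo i.1 * (liftW (right i.1).1 * zeta ^ (right i.1).2)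
    rw [h, ← mul_assoc (zeta ^ expo i.1),
      ← Subgroup.mem_center_iff.1 (Subgroup.pow_mem _ zeta_mem_center (expo i.1)) (liftW (right i.1).1),
      mul_assoc, ← pow_add]
    congr 1
    exact zeta_mod (by simp only [expo]; omega)
  obtain ⟨Δ, i1, i2, τ, hτ, k, hk, hd⟩ := TransferExt.exists_stem_of_sum (π := proj) rfl ker_le_center
    _ _ hxy rep rep_bijective (rowPt actFst rows_fst) (rowPt actSnd rows_snd) _ _
    (row_eq rows_fst x2 _ x1) (row_eq rows_snd y2 _ y1) _ he (zeta ^ 3) (by
      have hsum : ∀ l : List (Fin 3465), (l.map fun i => zeta ^ expo i.1).prod = zeta ^ (l.map fun i => expo i.1).sum := by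
        intro l
        induction l with
        | nil => simp
        | cons a l ih => rw [List.map_cons, List.prod_cons, ih, List.map_cons, List.sum_cons, pow_add]
      rw [hsum]
      exact zeta_mod expo_total)
  exact ⟨Δ, i1, i2, τ, hτ, k, hk, hc3 ▸ hd⟩

end Cfsg.Agent.Lib.SchurMult.MTwentyTwo
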