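import Cfsg.Agent.Lib.SchurMult.CyclicFromElements
import Cfsg.Agent.Lib.SchurMult.M22.Bound
import Cfsg.Agent.Lib.SchurMult.M22.Two
import Cfsg.Agent.Lib.SchurMult.M22.Three

/-!
The multiplier of the Mathieu group of degree 22 is cyclic of order twelve.
-/

set_option autoImplicit false

namespace Cfsg.Agent.Lib.SchurMult.MTwentyTwo

open Cfsg Cfsg.Agent.Lib.Golay

theorem hasTwelve : Cfsg.HasCyclicSchurMultiplier ↥gM22 12 := by
  refine SchurMult.hasCyclic_of_elements card_dvd_twelve fun p k hp hk => ?_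
  by_cases h3 : p = 3
  · subst h3
    obtain ⟨Δ, i1, i2, τ, hτ, x, hx, hd⟩ := exists_stem_three
    refine ⟨Δ, i1, i2, τ, hτ, x, hx, dvd_trans ?_ hd⟩
    have : 3 ^ k ∣ 3 * 4 := hk
    exact ((Nat.Coprime.pow_left k (by norm_num)).dvd_of_dvd_mul_right this)
  · obtain ⟨Δ, i1, i2, τ, hτ, x, hx, hd⟩ := exists_stem_four
    refine ⟨Δ, i1, i2, τ, hτ, x, hx, dvd_trans ?_ hd⟩
    have : p ^ k ∣ 4 * 3 := hk
    exact (((Nat.coprime_primes hp Nat.prime_three).2 h3).pow_left k).dvd_of_dvd_mul_right this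

end Cfsg.Agent.Lib.SchurMult.MTwentyTwo
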